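import Cfsg.Agent.SemiClasses.Models
import Cfsg.Agent.Forms.SympEmbed
import Cfsg.Agent.S2589

/-!
Classes of elements of prime order in symplectic groups.
-/

set_option autoImplicit false

open Matrix QuadraticMap CfsgLib.Forms

namespace CfsgLib.SemiClasses

variable {F : Type*} [Field F] [Fintype F]

/-- An isometry of an alternating form, seen in the symplectic group. -/
theorem exists_symp_transport {ι : Type} [Fintype ι] [DecidableEq ι] {m : ℕ} (hι : Fintype.card ι = 2 * m)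
    {G A : Matrix ι ι F} (hG : IsUnit G.det) (ha : ∀ x, x ⬝ᵥ (G *ᵥ x) = 0) (hA : Aᵀ * G * A = G) :
    ∃ B : Matrix (Fin m ⊕ Fin m) (Fin m ⊕ Fin m) F, B ∈ Matrix.symplecticGroup (Fin m) F ∧
      B.charpoly = A.charpoly ∧ ∀ k : ℕ, A ^ k = 1 → B ^ k = 1 := by
  have halt : (Matrix.toBilin' G).IsAlt := fun x => (Matrix.toBilin'_apply' G x x).trans (ha x)
  have hsep : (Matrix.toBilin' G).SeparatingLeft :=
    (LinearMap.BilinForm.nondegenerate_toBilin'_of_det_ne_zero' G hG.ne_zero).1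
  obtain ⟨g, hg⟩ := exists_symp_coord (n := m)
    (by rw [Module.finrank_fintype_fun_eq_card, hι]) (Matrix.toBilin' G) halt hsep
  obtain ⟨B, hB⟩ : ∃ B, B = LinearMap.toMatrixAlgEquiv' (g.conjAlgEquiv F (Matrix.toLinAlgEquiv' A)) := ⟨_, rfl⟩
  have hBv : ∀ v, B *ᵥ v = g (A *ᵥ g.symm v) := fun v => by
    rw [hB]
    show (LinearMap.toMatrix' (g.conj (Matrix.toLin' A))) *ᵥ v = _
    rw [LinearMap.toMatrix'_mulVec, LinearEquiv.conj_apply_apply, Matrix.toLin'_apply]
  refine ⟨B, CfsgLib.SpGeom.mem_of_form fun x y => ?_, ?_, fun k hk => ?_⟩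
  · conv_rhs => rw [← g.apply_symm_apply x, ← g.apply_symm_apply y, hg, Matrix.toBilin'_apply']
    rw [hBv, hBv, hg, Matrix.toBilin'_apply']
    conv_lhs => rw [← Matrix.vecMul_transpose, ← Matrix.dotProduct_mulVec, Matrix.mulVec_mulVec,
      Matrix.mulVec_mulVec, hA]
  · rw [hB]
    show (LinearMap.toMatrix' (g.conj (Matrix.toLin' A))).charpoly = _
    rw [← LinearMap.toMatrix_eq_toMatrix', LinearMap.charpoly_toMatrix, LinearEquiv.charpoly_conj,
      ← LinearMap.charpoly_toMatrix (Matrix.toLin' A) (Pi.basisFun F ι), LinearMap.toMatrix_eq_toMatrix',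
      LinearMap.toMatrix'_toLin']
  · rw [hB, ← map_pow, ← map_pow, ← map_pow, hk, map_one, map_one, map_one]

variable {p r : ℕ} [Fact p.Prime] [CharP F p] [hr : Fact r.Prime]

/-- The count in the symplectic group. -/
theorem card_symp (hrp : r ≠ p) (hr2 : r ≠ 2) {u : (ZMod r)ˣ} (hu : (u : ZMod r) = (Fintype.card F : ℕ)) (m : ℕ) :
    Nat.card {C : ConjClasses ↥(Matrix.symplecticGroup (Fin m) F) //
        ∃ g : Matrix.symplecticGroup (Fin m) F, ConjClasses.mk g = C ∧ orderOf g = r} =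
      Nat.choose (2 * m / (if Odd (orderOf u) then 2 * orderOf u else orderOf u) +
          (r - 1) / (if Odd (orderOf u) then 2 * orderOf u else orderOf u))
          ((r - 1) / (if Odd (orderOf u) then 2 * orderOf u else orderOf u)) - 1 := by
  classical
  obtain ⟨P, hP, hLfin, hζ⟩ := exists_root_field F hr.out (natCast_ne_zero hrp)
  obtain ⟨h, hh, hinv⟩ := exists_multiplier u hr2
  haveI := finite_invariant h (2 * m)
  have hpow : ∀ g : Matrix.symplecticGroup (Fin m) F, g ^ r = 1 →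
      (g : Matrix (Fin m ⊕ Fin m) (Fin m ⊕ Fin m) F) ^ r = 1 := fun g hg => by
    rw [← SubmonoidClass.coe_pow, hg, OneMemClass.coe_one]
  rw [← hh, ← card_invariant h (2 * m)]
  refine card_classes (fun (g : Matrix.symplecticGroup (Fin m) F) (x : ZMod r) =>
      mult (AdjoinRoot.root P) (g : Matrix (Fin m ⊕ Fin m) (Fin m ⊕ Fin m) F) x) _ (fun a b ha hb => ?_)
    (fun g hg => ?_) fun f hf => ?_
  · rw [Cfsg.Agent.S2589.result a b (coprime_order hrp ha)]
    constructor
    · rintro ⟨c, hc⟩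
      exact funext fun x => congrFun (mult_of_similar (Matrix.isUnits_det_units c) hc) x
    · intro e
      obtain ⟨Q, hQ, hQA⟩ := exists_similar hζ hrp (Equiv.refl _) (hpow a ha) (hpow b hb) (congrFun e)
      rw [Matrix.reindex_refl_refl] at hQA
      exact ⟨((Matrix.isUnit_iff_isUnit_det Q).mpr hQ).unit, hQA⟩
  · refine ⟨(hinv _).mp ⟨fun x => by rw [hu, mult_frob hζ],
      mult_neg_of_form hζ hrp (Matrix.isUnit_det_J _ _) (hpow g hg) (SymplecticGroup.mem_iff'.mp g.2)⟩, ?_⟩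
    rw [sum_mult hζ (hpow g hg)]
    simp [two_mul]
  · obtain ⟨hfh, hsum⟩ := hf
    obtain ⟨hf, hneg⟩ := (hinv f).mpr hfh
    let f' : ZMod r → ℕ := fun x => if x = 0 then 0 else f x
    obtain ⟨κ, _, _, Q, A, hQ, hA, hAQ, hmul, hev, -⟩ := model_moving hζ hrp hu hr2 f'
      (fun x => by simp only [f', mul_eq_zero, u.ne_zero, or_false, hf])
      (fun x => by simp only [f', neg_eq_zero, hneg]) (if_pos rfl)
    have hsplit : ∀ x, f x = f' x + if x = 0 then f 0 else 0 := fun x => by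
      by_cases hx : x = 0 <;> simp [f', hx]
    have h0 : Fintype.card κ + f 0 = 2 * m := by
      rw [← hsum, Finset.sum_congr rfl (fun x _ => hsplit x), Finset.sum_add_distrib,
        Finset.sum_ite_eq' Finset.univ 0, if_pos (Finset.mem_univ _), ← sum_mult hζ hA]
      simp only [hmul]
    obtain ⟨d, hd⟩ : ∃ d, f 0 = 2 * d := by
      obtain ⟨j, hj⟩ := hev
      exact ⟨m - j, by omega⟩
    obtain ⟨G, hG, hGs, hGp, hGX⟩ := gram_spec Q hQ
    have hAi : ∀ v, Q (A⁻¹ *ᵥ v) = Q v := fun v => by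
      rw [← hAQ (A⁻¹ *ᵥ v), Matrix.mulVec_mulVec,
        Matrix.mul_nonsing_inv _ ((Matrix.isUnit_iff_isUnit_det A).mp (IsUnit.of_pow_eq_one hA hr.out.ne_zero)),
        Matrix.one_mulVec]
    have hAu : IsUnit A.det := (Matrix.isUnit_iff_isUnit_det A).mp (IsUnit.of_pow_eq_one hA hr.out.ne_zero)
    obtain ⟨H, hH⟩ : ∃ H, H = G * (A - A⁻¹) := ⟨_, rfl⟩
    have hHu : IsUnit H.det := by
      rw [hH, show A - A⁻¹ = A⁻¹ * (A * A - 1) by
        rw [Matrix.mul_sub, Matrix.nonsing_inv_mul_cancel_left _ _ hAu, Matrix.mul_one], Matrix.det_mul,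
        Matrix.det_mul]
      exact hG.mul ((Matrix.isUnit_nonsing_inv_det _ hAu).mul
        (isUnit_sq_sub_one hζ hrp hr2 hA (by rw [hmul]; exact if_pos rfl)))
    have hHa : ∀ x, x ⬝ᵥ (H *ᵥ x) = 0 := fun x => by
      rw [hH, ← Matrix.mulVec_mulVec, hGp, Matrix.sub_mulVec, polar_sub_right]
      have e : polar (⇑Q) x (A⁻¹ *ᵥ x) = polar (⇑Q) (A *ᵥ x) x := by
        have := congrArg (fun M => x ⬝ᵥ (M *ᵥ (A⁻¹ *ᵥ x))) (hGX A hAQ)
        simp only [← Matrix.mulVec_mulVec, Matrix.dotProduct_mulVec x Aᵀ, Matrix.vecMul_transpose] at this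
        rw [hGp, hGp, Matrix.mulVec_mulVec x A A⁻¹, Matrix.mul_nonsing_inv _ hAu, Matrix.one_mulVec] at this
        exact this.symm
      rw [e, polar_comm (⇑Q) (A *ᵥ x) x, sub_self]
    have hHA : Aᵀ * H * A = H := by
      rw [hH, ← Matrix.mul_assoc, Matrix.mul_assoc (Aᵀ * G),
        show (A - A⁻¹) * A = A * (A - A⁻¹) by
          rw [Matrix.sub_mul, Matrix.mul_sub, Matrix.nonsing_inv_mul _ hAu, Matrix.mul_nonsing_inv _ hAu],
        ← Matrix.mul_assoc, hGX A hAQ]
    have hcard : Fintype.card (κ ⊕ (Fin d ⊕ Fin d)) = 2 * m := by simp; omega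
    have hblock : (Matrix.fromBlocks A 0 0 (1 : Matrix (Fin d ⊕ Fin d) (Fin d ⊕ Fin d) F))ᵀ *
        Matrix.fromBlocks H 0 0 (Matrix.J (Fin d) F) * Matrix.fromBlocks A 0 0 1 =
        Matrix.fromBlocks H 0 0 (Matrix.J (Fin d) F) := by
      rw [Matrix.fromBlocks_transpose, Matrix.fromBlocks_multiply, Matrix.fromBlocks_multiply]
      simp [hHA]
    obtain ⟨B, hB, hBc, hBk⟩ := exists_symp_transport hcard
      (CfsgLib.NilType.det_blocks_isUnit hHu (Matrix.isUnit_det_J _ _))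
      (fun x => by rw [CfsgLib.NilType.quad_blocks, hHa]; exact (zero_add _).trans (CfsgLib.SpGeom.form_self _))
      hblock
    refine ⟨⟨B, hB⟩, Subtype.ext ?_, funext fun x => ?_⟩
    · rw [SubmonoidClass.coe_pow, OneMemClass.coe_one]
      exact hBk r (by rw [CfsgLib.NilType.blocks_pow, hA, one_pow, Matrix.fromBlocks_one])
    · show mult _ B x = f x
      rw [congrFun (mult_of_charpoly (r := r) hBc) x, mult_blocks, hmul, mult_one hζ, hsplit x, hd]
      simp [two_mul]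

end CfsgLib.SemiClasses
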