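import Cfsg.Agent.PrimeClasses.PGL

/-!
Classes of elements of prime order in the central quotient of a subgroup of `GL_n` with scalars `T`.
-/

set_option autoImplicit false

namespace CfsgLib.SemiClasses

open Polynomial UniqueFactorizationMonoid CfsgLib.PrimeClasses

variable {F : Type*} [Field F] [Fintype F] {n r : ℕ} [hr : Fact r.Prime]

/-- A matrix with `g ^ r` a scalar that is no `r`-th power has all factors `X ^ r - t`. -/
theorem charpoly_of_pow_scalar (g : GL (Fin n) F) (t : Fˣ) (hg : g ^ r = sc n t)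
    (ht : ∀ b : F, b ^ r ≠ (t : F)) :
    r ∣ n ∧ (g : Matrix (Fin n) (Fin n) F).charpoly = (X ^ r - C (t : F)) ^ (n / r) := by
  classical
  have hrP : r.Prime := hr.out
  set M := (g : Matrix (Fin n) (Fin n) F)
  have hMr : M ^ r = algebraMap F _ (t : F) := by
    rw [show M ^ r = ((g ^ r : GL (Fin n) F) : Matrix (Fin n) (Fin n) F) from (Units.val_pow_eq_pow_val _ _).symm, hg, sc_coe]
  have hirr : Irreducible (X ^ r - C (t : F)) := X_pow_sub_C_irreducible_of_prime hrP ht
  have hN : ∀ P ∈ normalizedFactors M.charpoly, P = X ^ r - C (t : F) := fun P hP => by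
    obtain ⟨hi, hn', hd⟩ := (mem_normalizedFactors_iff' (Matrix.charpoly_monic M).ne_zero).mp hP
    refine eq_of_monic_of_associated ?_ (monic_X_pow_sub_C _ hrP.ne_zero) (hi.associated_of_dvd hirr (factor_dvd_scalar M hMr hi hd))
    rw [← hn']; exact monic_normalize hi.ne_zero
  have hc : M.charpoly = (X ^ r - C (t : F)) ^ Multiset.card (normalizedFactors M.charpoly) := by
    refine eq_of_monic_of_associated (Matrix.charpoly_monic M) ((monic_X_pow_sub_C _ hrP.ne_zero).pow _) ?_
    refine (prod_normalizedFactors (Matrix.charpoly_monic M).ne_zero).symm.trans ?_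
    rw [Multiset.eq_replicate_card.mpr hN, Multiset.prod_replicate, Multiset.card_replicate]
    exact Associated.refl _
  have hd : n = Multiset.card (normalizedFactors M.charpoly) * r := by
    have h1 : M.charpoly.natDegree = n := by rw [Matrix.charpoly_natDegree_eq_dim, Fintype.card_fin]
    rw [hc, natDegree_pow, natDegree_X_pow_sub_C] at h1
    omega
  refine ⟨⟨_, by rw [hd, mul_comm]⟩, ?_⟩
  have he : n / r = Multiset.card (normalizedFactors M.charpoly) := by
    conv_lhs => rw [hd, Nat.mul_div_cancel _ hrP.pos]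
  rw [he]; exact hc

/-- The count. -/
theorem card_quotient_center (hn : 2 ≤ n) (hrq : r ∣ Fintype.card F - 1) (G : Subgroup (GL (Fin n) F))
    (T : Subgroup Fˣ) (hT : r ∣ Nat.card T)
    (hroot : ∀ t ∈ T, (∃ s : Fˣ, s ^ r = t) → ∃ s ∈ T, s ^ r = t)
    (hscal : ∀ t : Fˣ, sc n t ∈ G ↔ t ∈ T)
    (hcentre : ∀ g : G, g ∈ Subgroup.center G ↔ ∃ t, (g : GL (Fin n) F) = sc n t)
    (hconj : ∀ a b : G, IsConj (a : GL (Fin n) F) b → IsConj a b)
    (hdiag : ∀ (z : ZMod r → Fˣ) (w : Fin n → ZMod r), (∀ j, z j ∈ T) → diagElt z w ∈ G)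
    (hnsplit : ∀ t ∈ T, (¬ ∃ s ∈ T, s ^ r = t) → r ∣ n → ∃ g ∈ G, g ^ r = sc n t) :
    Nat.card {K : ConjClasses (G ⧸ Subgroup.center G) // ∃ g : G ⧸ Subgroup.center G,
      ConjClasses.mk g = K ∧ orderOf g = r} =
      (Nat.choose (n + r - 1) (r - 1) - r - (if r ∣ n then 1 else 0)) / r + r * (if r ∣ n then 1 else 0) := by
  classical
  obtain ⟨p, hchar⟩ := CharP.exists F
  haveI := hchar
  haveI : Fact p.Prime := ⟨CharP.char_is_prime F p⟩
  have hrP : r.Prime := hr.out
  haveI : NeZero r := ⟨hrP.ne_zero⟩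
  obtain ⟨u0, hu0⟩ := TorusSylow.exists_orderOf_of_dvd (H := Fˣ) (m := r)
    (by rwa [Nat.card_units, Nat.card_eq_fintype_card])
  obtain ⟨e, he⟩ := TorusSylow.exists_zmod_hom hu0
  let z : ZMod r → Fˣ := fun j => e (Multiplicative.ofAdd j)
  have hzadd : ∀ j k, z (j + k) = z j * z k := fun j k => by simp only [z, ofAdd_add, map_mul]
  have hz0 : z 0 = 1 := by simp only [z, ofAdd_zero, map_one]
  have hzinj : Function.Injective z := fun j k h => Multiplicative.ofAdd.injective (he h)
  have hzr : ∀ j, z j ^ r = 1 := fun j => by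
    simp only [z, ← map_pow, ← ofAdd_nsmul, nsmul_eq_mul, ZMod.natCast_self, zero_mul, ofAdd_zero, map_one]
  have hzall : ∀ t : Fˣ, t ^ r = 1 → ∃ j, t = z j := by
    intro t ht
    have hle : e.range ≤ (powMonoidHom r : Fˣ →* Fˣ).ker := by
      rintro _ ⟨j, rfl⟩
      rw [MonoidHom.mem_ker, powMonoidHom_apply, ← ofAdd_toAdd j]
      exact hzr _
    have heq := Subgroup.eq_of_le_of_card_ge hle (le_of_eq (by
      rw [IsCyclic.card_powMonoidHom_ker, ← Nat.card_congr (MonoidHom.ofInjective he).toEquiv,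
        Nat.card_congr Multiplicative.toAdd, Nat.card_zmod, Nat.card_units, Nat.card_eq_fintype_card,
        Nat.gcd_eq_right hrq]))
    obtain ⟨j, hj⟩ := (heq.symm ▸ (by simpa using ht : t ∈ (powMonoidHom r : Fˣ →* Fˣ).ker) : t ∈ e.range)
    exact ⟨j.toAdd, hj.symm⟩
  have hzT : ∀ j, z j ∈ T := fun j => by
    obtain ⟨t, ht, htr⟩ := hroot 1 (one_mem T) ⟨1, one_pow r⟩
    obtain ⟨v, hv⟩ := TorusSylow.exists_orderOf_of_dvd (H := ↥T) (m := r) hT
    have hvr : (v : Fˣ) ^ r = 1 := by
      rw [← SubmonoidClass.coe_pow, ← hv, pow_orderOf_eq_one, OneMemClass.coe_one]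
    obtain ⟨i, hi⟩ := hzall _ hvr
    have hi0 : i ≠ 0 := fun h => by
      have h1 : v = 1 := Subtype.ext (by rw [hi, h, hz0]; rfl)
      rw [h1, orderOf_one] at hv
      exact hrP.one_lt.ne hv
    have hm : ∀ m : ℕ, z ((m : ZMod r) * i) ∈ T := fun m => by
      induction m with
      | zero => rw [Nat.cast_zero, zero_mul, hz0]; exact one_mem T
      | succ m ih => rw [Nat.cast_succ, add_mul, one_mul, hzadd, ← hi]; exact mul_mem ih v.2
    have := hm (j * i⁻¹).val
    rwa [ZMod.natCast_zmod_val, mul_assoc, inv_mul_cancel₀ hi0, mul_one] at this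
  let mk : ↥G → ↥G ⧸ Subgroup.center G := fun g => QuotientGroup.mk g
  have hone : ∀ g : ↥G, mk g = 1 ↔ ∃ t, (g : GL (Fin n) F) = sc n t := fun g => by
    rw [show mk g = (g : ↥G ⧸ Subgroup.center G) from rfl, QuotientGroup.eq_one_iff, hcentre]
  have hcls : ∀ g h : ↥G, ConjClasses.mk (mk g) = ConjClasses.mk (mk h) ↔
      ∃ t ∈ T, IsConj (sc n t * (g : GL (Fin n) F)) h := by
    intro g h
    rw [ConjClasses.mk_eq_mk_iff_isConj]
    constructor
    · intro hc
      obtain ⟨u, hu⟩ := isConj_iff.mp hc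
      obtain ⟨u, rfl⟩ := QuotientGroup.mk_surjective u
      have h1 : mk (h * (u * g * u⁻¹)⁻¹) = 1 := by
        simp only [mk] at hu ⊢
        rw [QuotientGroup.mk_mul, QuotientGroup.mk_inv, QuotientGroup.mk_mul, QuotientGroup.mk_mul,
          QuotientGroup.mk_inv, hu, mul_inv_cancel]
      obtain ⟨t, ht⟩ := (hone _).mp h1
      refine ⟨t, (hscal t).mp (ht ▸ SetLike.coe_mem _), isConj_iff.mpr ⟨(u : GL (Fin n) F), ?_⟩⟩
      rw [Subgroup.coe_mul, Subgroup.coe_inv, Subgroup.coe_mul, Subgroup.coe_mul, Subgroup.coe_inv,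
        mul_inv_eq_iff_eq_mul] at ht
      rw [← mul_assoc (u : GL (Fin n) F), Subgroup.mem_center_iff.mp (sc_center t) (u : GL (Fin n) F), mul_assoc (sc n t),
        mul_assoc (sc n t), ← ht]
    · rintro ⟨t, ht, hc⟩
      have h0 : mk ⟨sc n t, (hscal t).mpr ht⟩ = 1 := (hone _).mpr ⟨t, rfl⟩
      have h1 := (QuotientGroup.mk' (Subgroup.center G)).map_isConj
        (hconj (⟨sc n t, (hscal t).mpr ht⟩ * g) h (by rw [Subgroup.coe_mul]; exact hc))
      rw [map_mul, show QuotientGroup.mk' (Subgroup.center G) ⟨sc n t, (hscal t).mpr ht⟩ = 1 from h0, one_mul] at h1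
      exact h1
  have hrp : r ≠ p := by
    intro h
    obtain ⟨f, hp, hf⟩ := FiniteField.card F p
    have h2 := Nat.dvd_sub (show r ∣ Fintype.card F by rw [hf, h]; exact dvd_pow_self p f.2.ne') hrq
    rw [Nat.sub_sub_self Fintype.card_pos] at h2
    exact hrP.one_lt.ne' (Nat.dvd_one.mp h2)
  have hrF : (r : F) ≠ 0 := fun h =>
    hrp ((Nat.prime_dvd_prime_iff_eq (Fact.out : p.Prime) hrP).mp ((CharP.cast_eq_zero_iff F p r).mp h)).symm
  have hDr : ∀ w : Fin n → ZMod r, diagElt z w ^ r = sc n 1 := fun w => Units.ext (by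
    rw [Units.val_pow_eq_pow_val, sc_coe, diagElt_coe, Matrix.diagonal_pow, Units.val_one, map_one,
      ← Matrix.diagonal_one]
    congr 1
    funext i
    rw [Pi.pow_apply, ← Units.val_pow_eq_pow_val, hzr, Units.val_one])
  have hscD : ∀ k w, sc n (z k) * diagElt z w = diagElt z (fun i => k + w i) := fun k w => Units.ext (by
    rw [Units.val_mul, sc_coe, diagElt_coe, diagElt_coe, Matrix.algebraMap_eq_diagonal, Matrix.diagonal_mul_diagonal]
    congr 1
    funext i
    simp [hzadd])
  have hcp : ∀ (w : Fin n → ZMod r), (diagElt z w : Matrix (Fin n) (Fin n) F).charpoly.roots =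
      ∑ j, Multiset.replicate (cnt w j) (z j : F) := fun w => by
    rw [charpoly_diagElt, roots_prod _ _ (Finset.prod_ne_zero_iff.mpr fun j _ => pow_ne_zero _ (X_sub_C_ne_zero _))]
    simp only [roots_pow, roots_X_sub_C, Multiset.nsmul_singleton]
    rfl
  have hcnt : ∀ w w' : Fin n → ZMod r, (diagElt z w : Matrix (Fin n) (Fin n) F).charpoly =
      (diagElt z w' : Matrix (Fin n) (Fin n) F).charpoly → cnt w = cnt w' := by
    intro w w' h
    funext j
    have h' := congrArg (fun P => P.roots.count (z j : F)) h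
    simp only [hcp, Multiset.count_sum', Multiset.count_replicate] at h'
    rw [Finset.sum_eq_single j (fun k _ hk => if_neg (fun h => hk (hzinj (Units.ext h)))) (fun h => absurd (Finset.mem_univ j) h),
      Finset.sum_eq_single j (fun k _ hk => if_neg (fun h => hk (hzinj (Units.ext h)))) (fun h => absurd (Finset.mem_univ j) h)] at h'
    simpa using h'
  let D : (Fin n → ZMod r) → ↥G := fun w => ⟨diagElt z w, hdiag z w hzT⟩
  have hrel : ∀ w w' : Fin n → ZMod r, ConjClasses.mk (mk (D w)) = ConjClasses.mk (mk (D w')) ↔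
      ∃ k, cnt w' = fun j => cnt w (j - k) := by
    intro w w'
    rw [hcls]
    constructor
    · rintro ⟨t, -, ht⟩
      obtain ⟨u, hu⟩ := isConj_iff.mp ht
      change u * (sc n t * diagElt z w) * u⁻¹ = diagElt z w' at hu
      have h2 := congrArg (fun g => g ^ r) hu
      simp only [conj_pow, hDr] at h2
      have h3 : t ^ r = 1 := by
        have hc : Commute (sc n t) (diagElt z w) := (Subgroup.mem_center_iff.mp (sc_center t) _).symm
        rw [hc.mul_pow, hDr, show sc (F := F) n 1 = 1 from map_one _, mul_one, sc, ← map_pow] at h2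
        rw [Subgroup.mem_center_iff.mp (sc_center _) u, mul_inv_cancel_right] at h2
        exact sc_injective (by omega) (h2.trans (map_one _).symm)
      obtain ⟨k, rfl⟩ := hzall t h3
      refine ⟨k, ?_⟩
      rw [← cnt_shift]
      apply hcnt
      rw [← hu, ← hscD, Units.val_mul, Units.val_mul, Matrix.charpoly_mul_comm, ← mul_assoc, ← Units.val_mul,
        inv_mul_cancel, Units.val_one, one_mul]
    · rintro ⟨k, hk⟩
      refine ⟨z k, hzT k, Cfsg.Agent.H29.Semisimple.gl_conj_of_charpoly (p := p) _ _ ?_ ?_ ?_⟩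
      · show (orderOf (sc n (z k) * diagElt z w)).Coprime p
        rw [hscD]; exact coprime_of_pow_scalar hrq (hDr _)
      · exact coprime_of_pow_scalar hrq (hDr _)
      · show (sc n (z k) * diagElt z w).1.charpoly = (diagElt z w').1.charpoly
        rw [hscD, charpoly_diagElt, charpoly_diagElt, cnt_shift, hk]
  -- elements of order r
  have hord : ∀ g : ↥G, orderOf (mk g) = r ↔
      (∃ t, (g : GL (Fin n) F) ^ r = sc n t) ∧ ¬ ∃ t, (g : GL (Fin n) F) = sc n t := by
    intro g
    constructor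
    · intro h
      refine ⟨?_, fun h' => ?_⟩
      · obtain ⟨t, ht⟩ := (hone (g ^ r)).mp (by
          show ((g ^ r : ↥G) : ↥G ⧸ Subgroup.center G) = 1
          rw [QuotientGroup.mk_pow, ← h]; exact pow_orderOf_eq_one _)
        exact ⟨t, by rw [← SubmonoidClass.coe_pow]; exact ht⟩
      rw [(hone g).mpr h', orderOf_one] at h
      exact hrP.one_lt.ne h
    · rintro ⟨h1, h2⟩
      refine orderOf_eq_prime ?_ (fun h => h2 ((hone g).mp h))
      show (g : ↥G ⧸ Subgroup.center G) ^ r = 1
      rw [← QuotientGroup.mk_pow]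
      obtain ⟨t, ht⟩ := h1
      exact (hone _).mpr ⟨t, by rw [SubmonoidClass.coe_pow]; exact ht⟩
  -- split part
  let A := {a : ZMod r → ℕ // ∑ j, a j = n ∧ ∀ j, a j < n}
  have hlab : ∀ a : A, ∃ w : Fin n → ZMod r, cnt w = a.1 := fun a => exists_labelling a.1 a.2.1
  choose wa hwa using hlab
  let Sp := {K : ConjClasses (↥G ⧸ Subgroup.center G) // ∃ g : ↥G,
    ConjClasses.mk (mk g) = K ∧ (g : GL (Fin n) F) ^ r = sc n 1 ∧ orderOf (mk g) = r}
  have hns : ∀ a : A, orderOf (mk (D (wa a))) = r := by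
    intro a
    refine (hord _).mpr ⟨⟨1, hDr _⟩, fun ⟨t, ht⟩ => ?_⟩
    have h1 : ∀ i, (z (wa a i) : F) = t := fun i => by
      change diagElt z (wa a) = sc n t at ht
      have := congrArg (fun g : GL (Fin n) F => (g : Matrix (Fin n) (Fin n) F) i i) ht
      simpa [diagElt_coe, sc_coe, Matrix.algebraMap_matrix_apply] using this
    have i0 : Fin n := ⟨0, by omega⟩
    have h2 : cnt (wa a) (wa a i0) = n := by
      rw [cnt, Finset.filter_true_of_mem fun i _ => hzinj (Units.ext ((h1 i).trans (h1 i0).symm)), Finset.card_univ,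
        Fintype.card_fin]
    have := a.2.2 (wa a i0)
    rw [← hwa a, h2] at this
    exact lt_irrefl _ this
  let Ψ : A → Sp := fun a => ⟨ConjClasses.mk (mk (D (wa a))), D (wa a), rfl, hDr _, hns a⟩
  have hΨ : ∀ a b, Ψ a = Ψ b ↔ ∃ k, b.1 = fun j => a.1 (j - k) := fun a b => by
    rw [← hwa a, ← hwa b, ← hrel]
    exact Subtype.ext_iff
  have hΨs : Function.Surjective Ψ := by
    rintro ⟨K, g, rfl, hg, ho⟩
    set M := ((g : GL (Fin n) F) : Matrix (Fin n) (Fin n) F)
    have hMr : M ^ r = algebraMap F _ (1 : F) := by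
      rw [show M ^ r = (((g : GL (Fin n) F) ^ r : GL (Fin n) F) : Matrix (Fin n) (Fin n) F) from (Units.val_pow_eq_pow_val _ _).symm,
        hg, sc_coe, Units.val_one]
    have hfac : ∀ P ∈ normalizedFactors M.charpoly, ∃ j, P = X - C (z j : F) := by
      intro P hP
      obtain ⟨hi, hn', hd⟩ := (mem_normalizedFactors_iff' (Matrix.charpoly_monic M).ne_zero).mp hP
      have h1 := factor_dvd_scalar M hMr hi hd
      have h2 : (X ^ r - C (1 : F)) = ∏ j : ZMod r, (X - C (z j : F)) := by
        refine eq_of_monic_of_associated (monic_X_pow_sub_C _ hrP.ne_zero) (monic_prod_of_monic _ _ fun j _ => monic_X_sub_C _) ?_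
        refine (associated_of_dvd_of_natDegree_le ?_ (X_pow_sub_C_ne_zero hrP.pos _) ?_).symm
        · refine Finset.prod_dvd_of_coprime (fun i _ j _ hij => ?_) fun j _ => ?_
          · exact isCoprime_X_sub_C_of_isUnit_sub (sub_ne_zero.mpr fun h => hij (hzinj (Units.ext h))).isUnit
          · rw [dvd_iff_isRoot]
            simp [← Units.val_pow_eq_pow_val, hzr]
        · rw [natDegree_X_pow_sub_C, natDegree_prod _ _ fun j _ => X_sub_C_ne_zero _]
          simp
      rw [h2] at h1
      obtain ⟨j, -, hj⟩ := (hi.prime.dvd_finsetProd_iff _).mp h1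
      refine ⟨j, eq_of_monic_of_associated ?_ (monic_X_sub_C _) (hi.associated_of_dvd (irreducible_X_sub_C _) hj)⟩
      rw [← hn']
      exact monic_normalize hi.ne_zero
    let a : ZMod r → ℕ := fun j => (normalizedFactors M.charpoly).count (X - C (z j : F))
    have hN : normalizedFactors M.charpoly = ∑ j, Multiset.replicate (a j) (X - C (z j : F)) := by
      ext Q
      simp only [Multiset.count_sum', Multiset.count_replicate]
      by_cases hQ : ∃ j, Q = X - C (z j : F)
      · obtain ⟨j, rfl⟩ := hQ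
        rw [Finset.sum_eq_single j (fun k _ hk => if_neg (fun h => hk (hzinj (Units.ext (C_injective (sub_right_injective h))))))
          (fun h => absurd (Finset.mem_univ j) h), if_pos rfl]
      · rw [Multiset.count_eq_zero.mpr fun h => hQ (hfac Q h),
          Finset.sum_eq_zero fun j _ => if_neg (fun h : X - C (z j : F) = Q => hQ ⟨j, h.symm⟩)]
    have hprod : M.charpoly = ∏ j, (X - C (z j : F)) ^ a j := by
      refine eq_of_monic_of_associated (Matrix.charpoly_monic M) (monic_prod_of_monic _ _ fun j _ => (monic_X_sub_C _).pow _) ?_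
      refine (prod_normalizedFactors (Matrix.charpoly_monic M).ne_zero).symm.trans ?_
      rw [hN, Multiset.prod_sum]
      simp only [Multiset.prod_replicate]
      exact Associated.refl _
    have hsum : ∑ j, a j = n := by
      have h1 : M.charpoly.natDegree = n := by rw [Matrix.charpoly_natDegree_eq_dim, Fintype.card_fin]
      rw [hprod, natDegree_prod _ _ fun j _ => pow_ne_zero _ (X_sub_C_ne_zero _)] at h1
      simpa using h1
    obtain ⟨w, hw⟩ := exists_labelling a hsum
    have hgw : IsConj (g : GL (Fin n) F) (diagElt z w) := Cfsg.Agent.H29.Semisimple.gl_conj_of_charpoly (p := p) _ _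
      (coprime_of_pow_scalar hrq hg) (coprime_of_pow_scalar hrq (hDr _)) (by rw [charpoly_diagElt, hw]; exact hprod)
    have hA : ∀ j, a j < n := by
      intro j
      refine lt_of_le_of_ne (hsum ▸ Finset.single_le_sum (fun k _ => Nat.zero_le (a k)) (Finset.mem_univ j)) fun hj => ?_
      have h1 : ∀ i, w i = j := by
        intro i
        by_contra hi
        have : (Finset.univ.filter fun i => w i = j).card < n := by
          refine (Finset.card_lt_card ((Finset.ssubset_iff_of_subset (Finset.subset_univ _)).mpr ⟨i, Finset.mem_univ _, ?_⟩)).trans_eq ?_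
          · simp [hi]
          · simp
        rw [← hw] at hj
        exact this.ne hj
      obtain ⟨u, hu⟩ := isConj_iff.mp hgw
      apply ((hord g).mp ho).2
      refine ⟨z j, ?_⟩
      have hD : diagElt z w = sc n (z j) := Units.ext (by
        rw [diagElt_coe, sc_coe, Matrix.algebraMap_eq_diagonal]
        congr 1; funext i; simp [h1 i])
      rw [hD, mul_inv_eq_iff_eq_mul, ← Subgroup.mem_center_iff.mp (sc_center (z j)) u] at hu
      exact mul_left_cancel hu
    refine ⟨⟨a, hsum, hA⟩, Subtype.ext ?_⟩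
    show ConjClasses.mk (mk (D (wa _))) = ConjClasses.mk (mk g)
    rw [(hrel _ w).mpr ⟨0, by rw [hw, hwa]; simp⟩, ConjClasses.mk_eq_mk_iff_isConj]
    exact (QuotientGroup.mk' _).map_isConj (hconj (D w) g hgw.symm)
  let fixA : A → Prop := fun a => ∀ j, a.1 j = a.1 0
  have hfixn : ∀ a : A, fixA a → r * a.1 0 = n := fun a ha => by
    have := a.2.1
    rw [Finset.sum_congr rfl fun j _ => ha j, Finset.sum_const, Finset.card_univ, ZMod.card, smul_eq_mul] at this
    exact this
  have hAfin : Finite A := by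
    refine Finite.of_injective (fun a : A => (fun j => (⟨a.1 j, a.2.2 j⟩ : Fin n))) fun a b h => ?_
    exact Subtype.ext (funext fun j => congrArg Fin.val (congrFun h j))
  have hcardA : Nat.card A = Nat.choose (n + r - 1) (r - 1) - r := by
    have e1 : {a : ZMod r → ℕ // ∑ j, a j = n} ≃ Sym (ZMod r) n := (Sym.equivNatSumOfFintype _ _).symm
    have hall : Nat.card {a : ZMod r → ℕ // ∑ j, a j = n} = Nat.choose (n + r - 1) (r - 1) := by
      rw [Nat.card_congr e1, Nat.card_eq_fintype_card, Sym.card_sym_eq_choose, ZMod.card]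
      rw [show r + n - 1 = n + (r - 1) by have := hrP.pos; omega, show n + r - 1 = n + (r - 1) by have := hrP.pos; omega,
        Nat.choose_symm_add]
    haveI : Finite {a : ZMod r → ℕ // ∑ j, a j = n} := Finite.of_equiv _ e1.symm
    let bad := {a : {a : ZMod r → ℕ // ∑ j, a j = n} // ¬ ∀ j, a.1 j < n}
    have hbad : Nat.card bad = r := by
      have hb : Function.Bijective (fun j : ZMod r => (⟨⟨Pi.single j n, by simp⟩, fun h => by simpa using h j⟩ : bad)) := by
        constructor
        · intro j k h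
          by_contra hne
          have := congrFun (congrArg (fun b : bad => b.1.1) h) j
          simp [Pi.single_eq_of_ne hne] at this
          omega
        · rintro ⟨⟨a, ha⟩, hb⟩
          push Not at hb
          obtain ⟨j, hj⟩ := hb
          change n ≤ a j at hj
          refine ⟨j, Subtype.ext (Subtype.ext (funext fun k => ?_))⟩
          have hle : a j ≤ n := ha ▸ Finset.single_le_sum (fun k _ => Nat.zero_le (a k)) (Finset.mem_univ j)
          by_cases hk : k = j
          · subst hk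
            show (Pi.single k n : ZMod r → ℕ) k = a k
            rw [Pi.single_eq_same]
            omega
          · have := Finset.add_sum_erase Finset.univ a (Finset.mem_univ j)
            have hk' : a k ≤ ∑ x ∈ Finset.univ.erase j, a x :=
              Finset.single_le_sum (fun k _ => Nat.zero_le (a k)) (Finset.mem_erase.mpr ⟨hk, Finset.mem_univ k⟩)
            show (Pi.single j n : ZMod r → ℕ) k = a k
            rw [Pi.single_eq_of_ne hk]
            omega
      rw [← Nat.card_eq_of_bijective _ hb, Nat.card_zmod]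
    have e2 : A ≃ {a : {a : ZMod r → ℕ // ∑ j, a j = n} // ∀ j, a.1 j < n} :=
      (Equiv.subtypeSubtypeEquivSubtypeInter (fun a : ZMod r → ℕ => ∑ j, a j = n) (fun a => ∀ j, a j < n)).symm
    have h3 := Nat.card_congr (Equiv.sumCompl (fun a : {a : ZMod r → ℕ // ∑ j, a j = n} => ∀ j, a.1 j < n))
    rw [Nat.card_sum, ← Nat.card_congr e2, hbad, hall] at h3
    omega
  have hfA : Nat.card {a : A // fixA a} = if r ∣ n then 1 else 0 := by
    split_ifs with h
    · obtain ⟨m, hm⟩ := h
      have hmn : m < n := by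
        have := hrP.two_le
        rcases Nat.eq_zero_or_pos m with h0 | h0
        · subst h0; omega
        · have := Nat.mul_le_mul_right m this; omega
      rw [Nat.card_eq_one_iff_exists]
      refine ⟨⟨⟨fun _ => m, by simp [hm], fun _ => hmn⟩, fun _ => rfl⟩, fun b => Subtype.ext (Subtype.ext (funext fun j => ?_))⟩
      have := hfixn b.1 b.2
      rw [b.2 j]
      exact Nat.eq_of_mul_eq_mul_left hrP.pos (this.trans hm)
    · rw [Nat.card_eq_zero]
      exact Or.inl ⟨fun b => h ⟨_, (hfixn b.1 b.2).symm⟩⟩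
  have hSp : Nat.card Sp = (Nat.card A - (if r ∣ n then 1 else 0)) / r + (if r ∣ n then 1 else 0) := by
    refine card_orbit_formula r _ hrP.pos Ψ hΨs fixA hfA (fun a ha => ?_) fun a ha => ?_
    · rw [Nat.card_eq_one_iff_exists]
      refine ⟨⟨a, rfl⟩, fun b => Subtype.ext (Subtype.ext ?_)⟩
      obtain ⟨k, hk⟩ := (hΨ a b.1).mp b.2.symm
      rw [hk]
      funext j
      rw [ha (j - k), ha j]
    · have sh : ∀ k, ∑ j, a.1 (j - k) = n := fun k => by
        rw [Fintype.sum_equiv (Equiv.subRight k) (fun j => a.1 (j - k)) a.1 fun j => rfl]; exact a.2.1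
      let φ : ZMod r → {b // Ψ b = Ψ a} := fun k => ⟨⟨fun j => a.1 (j - k), sh k, fun j => a.2.2 _⟩,
        ((hΨ a _).mpr ⟨k, rfl⟩).symm⟩
      have hφ : Function.Bijective φ := by
        constructor
        · intro k l h
          by_contra hkl
          have hper : ∀ j, a.1 (j + (k - l)) = a.1 j := fun j => by
            have := congrFun (congrArg (fun b : {b // Ψ b = Ψ a} => b.1.1) h) (j + k)
            simp only [φ, add_sub_cancel_right] at this
            rw [this]
            congr 1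
            abel_nf
          apply ha
          intro j
          have hm : ∀ m : ℕ, a.1 ((m : ZMod r) * (k - l)) = a.1 0 := by
            intro m
            induction m with
            | zero => simp
            | succ m ih => rw [Nat.cast_succ, add_mul, one_mul, hper, ih]
          have hd : k - l ≠ 0 := sub_ne_zero.mpr hkl
          have := hm (j * (k - l)⁻¹).val
          rwa [ZMod.natCast_zmod_val, mul_assoc, inv_mul_cancel₀ hd, mul_one] at this
        · rintro ⟨b, hb⟩
          obtain ⟨k, hk⟩ := (hΨ a b).mp hb.symm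
          exact ⟨k, Subtype.ext (Subtype.ext hk.symm)⟩
      rw [← Nat.card_eq_of_bijective φ hφ, Nat.card_zmod]
  -- the non-split part
  set R := (powMonoidHom r : ↥T →* ↥T).range with hR
  have hRn : ∀ t : ↥T, t ∉ R → ∀ b : F, b ^ r ≠ ((t : Fˣ) : F) := fun t ht b hb => by
    have hb0 : b ≠ 0 := fun h => (t : Fˣ).ne_zero (by rw [← hb, h, zero_pow hrP.ne_zero])
    obtain ⟨s, hs, hsr⟩ := hroot (t : Fˣ) t.2 ⟨Units.mk0 b hb0, Units.ext (by simpa using hb)⟩
    exact ht ⟨⟨s, hs⟩, Subtype.ext hsr⟩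
  let Ns := {K : ConjClasses (↥G ⧸ Subgroup.center G) // ∃ (g : ↥G) (t : ↥T),
    ConjClasses.mk (mk g) = K ∧ (g : GL (Fin n) F) ^ r = sc n (t : Fˣ) ∧ t ∉ R}
  have hinv : ∀ (g g' : ↥G) (t t' : ↥T), (g : GL (Fin n) F) ^ r = sc n (t : Fˣ) →
      (g' : GL (Fin n) F) ^ r = sc n (t' : Fˣ) →
      ConjClasses.mk (mk g) = ConjClasses.mk (mk g') → (t : ↥T ⧸ R) = (t' : ↥T ⧸ R) := by
    intro g g' t t' hg hg' h
    obtain ⟨s, hsT, hs⟩ := (hcls g g').mp h
    obtain ⟨u, hu⟩ := isConj_iff.mp hs
    have hc : Commute (sc n s) (g : GL (Fin n) F) := (Subgroup.mem_center_iff.mp (sc_center s) _).symm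
    have h2 : (u * (sc n s * (g : GL (Fin n) F)) * u⁻¹) ^ r = (g' : GL (Fin n) F) ^ r := by rw [hu]
    rw [conj_pow, hc.mul_pow, hg, hg', sc, ← map_pow, ← map_mul, Subgroup.mem_center_iff.mp (sc_center _) u,
      mul_inv_cancel_right] at h2
    have h3 := sc_injective (by omega) h2
    rw [QuotientGroup.eq]
    refine ⟨⟨s, hsT⟩, Subtype.ext ?_⟩
    rw [powMonoidHom_apply, SubmonoidClass.coe_pow, Subgroup.coe_mul, Subgroup.coe_inv, ← h3,
      mul_comm (s ^ r), inv_mul_cancel_left]
  have hcp2 : ∀ (g : GL (Fin n) F) (t : ↥T), g ^ r = sc n (t : Fˣ) → t ∉ R →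
      r ∣ n ∧ (g : Matrix (Fin n) (Fin n) F).charpoly = (X ^ r - C ((t : Fˣ) : F)) ^ (n / r) := fun g t hg ht =>
    charpoly_of_pow_scalar g (t : Fˣ) hg (hRn t ht)
  have hNs : Nat.card Ns = (r - 1) * (if r ∣ n then 1 else 0) := by
    split_ifs with h
    · have hout : ∀ c : ↥T ⧸ R, c ≠ 1 → c.out ∉ R := fun c hc h => hc (by
        rw [← QuotientGroup.out_eq' c]; exact (QuotientGroup.eq_one_iff _).mpr h)
      have hex : ∀ c : {c : ↥T ⧸ R // c ≠ 1}, ∃ g : ↥G, (g : GL (Fin n) F) ^ r = sc n (c.1.out : Fˣ) := fun c => by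
        obtain ⟨g, hg, hgr⟩ := hnsplit _ c.1.out.2 (fun ⟨s, hs, hsr⟩ => hout c.1 c.2 ⟨⟨s, hs⟩, Subtype.ext hsr⟩) h
        exact ⟨⟨g, hg⟩, hgr⟩
      choose g hg using hex
      let Φ : {c : ↥T ⧸ R // c ≠ 1} → Ns := fun c =>
        ⟨ConjClasses.mk (mk (g c)), g c, c.1.out, rfl, hg _, hout c.1 c.2⟩
      have hΦ : Function.Bijective Φ := by
        constructor
        · intro c d h
          have := hinv _ _ _ _ (hg c) (hg d) (congrArg Subtype.val h)
          rw [QuotientGroup.out_eq', QuotientGroup.out_eq'] at this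
          exact Subtype.ext this
        · rintro ⟨K, x, t, rfl, hx, ht⟩
          have hc1 : (t : ↥T ⧸ R) ≠ 1 := fun h => ht ((QuotientGroup.eq_one_iff _).mp h)
          refine ⟨⟨t, hc1⟩, Subtype.ext ?_⟩
          show ConjClasses.mk (mk (g ⟨t, hc1⟩)) = _
          obtain ⟨t', ht'def⟩ : ∃ t', t' = (t : ↥T ⧸ R).out := ⟨_, rfl⟩
          obtain ⟨s, hs⟩ : t'⁻¹ * t ∈ R := QuotientGroup.eq.mp (ht'def ▸ QuotientGroup.out_eq' (t : ↥T ⧸ R))
          rw [powMonoidHom_apply, eq_inv_mul_iff_mul_eq] at hs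
          refine (hcls _ _).mpr ⟨s, s.2, ?_⟩
          have hpow : (sc n (s : Fˣ) * (g ⟨t, hc1⟩ : GL (Fin n) F)) ^ r = sc n (t : Fˣ) := by
            have hc : Commute (sc n (s : Fˣ)) (g ⟨t, hc1⟩ : GL (Fin n) F) :=
              (Subgroup.mem_center_iff.mp (sc_center _) _).symm
            have e : (t : Fˣ) = (s : Fˣ) ^ r * (t' : Fˣ) := by
              have h' := congrArg Subtype.val hs
              rw [Subgroup.coe_mul, SubmonoidClass.coe_pow] at h'
              rw [← h', mul_comm]
            rw [hc.mul_pow, hg, e, ht'def, sc, ← map_pow, ← map_mul]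
          exact Cfsg.Agent.H29.Semisimple.gl_conj_of_charpoly (p := p) _ _ (coprime_of_pow_scalar hrq hpow)
            (coprime_of_pow_scalar hrq hx) (by rw [(hcp2 _ t hpow ht).2, (hcp2 _ t hx ht).2])
      rw [← Nat.card_eq_of_bijective Φ hΦ, mul_one]
      show Nat.card ({c : ↥T ⧸ R | c ≠ 1} : Set _) = r - 1
      rw [Nat.card_coe_set_eq, show {c : ↥T ⧸ R | c ≠ 1} = {1}ᶜ from rfl, Set.ncard_compl, Set.ncard_singleton,
        ← Subgroup.index_eq_card, hR, IsCyclic.index_powMonoidHom_range, Nat.gcd_eq_right hT]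
    · rw [mul_zero, Nat.card_eq_zero]
      exact Or.inl ⟨fun ⟨K, x, t, _, hx, ht⟩ => h (hcp2 x t hx ht).1⟩
  -- assembling
  have hsplit : {K : ConjClasses (↥G ⧸ Subgroup.center G) | ∃ g, ConjClasses.mk g = K ∧ orderOf g = r} =
      {K | ∃ g : ↥G, ConjClasses.mk (mk g) = K ∧ (g : GL (Fin n) F) ^ r = sc n 1 ∧ orderOf (mk g) = r} ∪
      {K | ∃ (g : ↥G) (t : ↥T), ConjClasses.mk (mk g) = K ∧ (g : GL (Fin n) F) ^ r = sc n (t : Fˣ) ∧ t ∉ R} := by
    ext K
    constructor
    · rintro ⟨g', rfl, ho⟩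
      obtain ⟨g, rfl⟩ := QuotientGroup.mk_surjective g'
      obtain ⟨⟨t, ht⟩, -⟩ := (hord g).mp ho
      have htT : t ∈ T := (hscal t).mp (ht ▸ pow_mem g.2 r)
      by_cases htR : (⟨t, htT⟩ : ↥T) ∈ R
      · obtain ⟨s, hs⟩ := htR
        have hsi : sc n ((s : Fˣ)⁻¹) ∈ G := (hscal _).mpr (inv_mem s.2)
        have hc : Commute (sc n (s : Fˣ)⁻¹) (g : GL (Fin n) F) := (Subgroup.mem_center_iff.mp (sc_center _) _).symm
        have he : mk (⟨sc n (s : Fˣ)⁻¹, hsi⟩ * g) = mk g := by
          show ((⟨sc n (s : Fˣ)⁻¹, hsi⟩ * g : ↥G) : ↥G ⧸ Subgroup.center G) = _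
          rw [QuotientGroup.mk_mul, show ((⟨sc n (s : Fˣ)⁻¹, hsi⟩ : ↥G) : ↥G ⧸ Subgroup.center G) = 1 from
            (hone _).mpr ⟨_, rfl⟩, one_mul]
        refine Or.inl ⟨⟨sc n (s : Fˣ)⁻¹, hsi⟩ * g, by rw [he], ?_, by rw [he]; exact ho⟩
        rw [Subgroup.coe_mul, hc.mul_pow, ht, sc, ← map_pow, ← map_mul,
          show t = (s : Fˣ) ^ r from (congrArg Subtype.val hs).symm, inv_pow, inv_mul_cancel]
      · exact Or.inr ⟨g, ⟨t, htT⟩, rfl, ht, htR⟩
    · rintro (⟨g, rfl, -, ho⟩ | ⟨g, t, rfl, hg, ht⟩)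
      · exact ⟨_, rfl, ho⟩
      · refine ⟨_, rfl, (hord g).mpr ⟨⟨t, hg⟩, fun ⟨s, hs⟩ => ht ⟨⟨s, (hscal s).mp (hs ▸ g.2)⟩, Subtype.ext ?_⟩⟩⟩
        rw [hs, sc, ← map_pow] at hg
        exact sc_injective (by omega) hg
  have hdis : Disjoint
      {K | ∃ g : ↥G, ConjClasses.mk (mk g) = K ∧ (g : GL (Fin n) F) ^ r = sc n 1 ∧ orderOf (mk g) = r}
      {K | ∃ (g : ↥G) (t : ↥T), ConjClasses.mk (mk g) = K ∧ (g : GL (Fin n) F) ^ r = sc n (t : Fˣ) ∧ t ∉ R} := by
    rw [Set.disjoint_left]
    rintro K ⟨g, rfl, hg, -⟩ ⟨g', t, h, hg', ht⟩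
    exact ht ((QuotientGroup.eq_one_iff _).mp ((hinv g g' 1 t hg hg' h.symm).symm))
  show Nat.card ({K : ConjClasses (↥G ⧸ Subgroup.center G) | ∃ g, ConjClasses.mk g = K ∧ orderOf g = r} : Set _) = _
  rw [hsplit, Nat.card_coe_set_eq, Set.ncard_union_eq hdis, ← Nat.card_coe_set_eq, ← Nat.card_coe_set_eq]
  show Nat.card Sp + Nat.card Ns = _
  rw [hSp, hNs, hcardA]
  have := hrP.pos
  split_ifs <;> omega

end CfsgLib.SemiClasses
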